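import Mathlib
import Cfsg.Agent.Lib.Helper12.KS.Defs
import Cfsg.Agent.S0111

set_option autoImplicit false

/-! S0518 project, package Thom: in case B the central involution `c₁` of `P₁` is not a product
of elements of odd order (Thompson transfer, S0111). -/

namespace Cfsg.Agent.Lib.Helper72.KS

open Cfsg Cfsg.Agent.Lib.Helper12.KS

universe u

theorem pkgThom (hO1 : PkgO1.{u}) (hT0 : PkgT0.{u}) (hU : PkgU.{u}) (hFusT : PkgFusT.{u})
    (hNoFus : PkgNoFusS.{u}) (hOdd : PkgOdd.{u}) : PkgThom.{u} := by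
  intro G _ _ P₁ P₂ T Q₁ Q₂ W₁ W₂ c₁ c₂ hB hZ
  have hb := hO1 hB.side₁
  have ht0 := hT0 hB
  have : Fact (Nat.Prime 2) := ⟨Nat.prime_two⟩
  obtain ⟨S, hTS⟩ := hb.syl.2.1.exists_le_sylow
  obtain ⟨U, hUS, hUi, hUT⟩ := hU hB (S : Subgroup G) S.isPGroup' hTS
  have hc₁T : c₁ ∈ T := hb.Q_le_T hb.c_mem_Q
  have hc₁U : c₁ ∉ U := by
    intro h
    have : c₁ ∈ U ⊓ T := Subgroup.mem_inf.mpr ⟨h, hc₁T⟩
    rw [hUT] at this
    exact ht0.c₁_not this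
  have hord : orderOf c₁ = 2 := by
    apply orderOf_eq_prime
    · rw [pow_two]; exact hb.c_sq
    · exact hb.c_ne
  rcases Cfsg.Agent.S0111.result S U hUS hUi c₁ hord (hTS hc₁T) hc₁U with ⟨M, hMn, hMi, hcM⟩ | ⟨g, hg⟩
  · intro hc
    exact hcM (hOdd M hMn hMi hc)
  · exfalso
    have hgT : g * c₁ * g⁻¹ ∈ T := hNoFus hB hZ S hTS g (hUS hg)
    have : g * c₁ * g⁻¹ ∈ U ⊓ T := Subgroup.mem_inf.mpr ⟨hg, hgT⟩
    rw [hUT] at this
    exact hFusT hB g hgT this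

end Cfsg.Agent.Lib.Helper72.KS
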